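import Cfsg.Agent.Lib.McLCov.Checks

/-!
# The triple cover of `McL`: a stabiliser chain of `U₄(3)` on the 275 points
-/

set_option autoImplicit false
set_option maxRecDepth 100000

namespace Cfsg.Agent.Lib.McLCov.ChainD

open _root_.Cfsg.Agent.Lib.PermComp
open _root_.Cfsg.Agent.Lib.PermComp.Core
open Cfsg.Agent.Lib.McLCov.K3Data Cfsg.Agent.Lib.McLCov.Tab

theorem chain_d : checkAll 275 9 511 d_L d_maskL d_idc (c_gens.map (·.2.2)) d_prog d_levels = true := by
  decide +kernel

theorem ord_d : orderC d_levels = 3265920 := by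
  decide +kernel

theorem base_d : d_levels.map Lev.base = [nat_lit 1, nat_lit 2, nat_lit 3, nat_lit 4, nat_lit 5] := by
  decide +kernel

end Cfsg.Agent.Lib.McLCov.ChainD
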