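import Cfsg.Agent.Lib.McLCov.K3Chain
import Cfsg.Agent.Lib.McLCov.Tab
import Cfsg.Agent.Lib.McLStab.Basic
import Cfsg.Agent.Lib.Cores.Words

/-!
# The triple cover of `McL`: the kernel checks on the group and the central element
-/

set_option autoImplicit false
set_option maxRecDepth 100000

namespace Cfsg.Agent.Lib.McLCov.Checks

open _root_.Cfsg.Agent.Lib.PermComp
open _root_.Cfsg.Agent.Lib.PermComp.Core
open Cfsg.Agent.Lib.McLCov.K3Data Cfsg.Agent.Lib.McLCov.Tab Cfsg.Agent.Lib.Schur.CoverCert Cfsg.Agent.Lib.Schur.CoverC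
open Cfsg.Agent.Lib.McLStab Cfsg.Agent.Lib.McLStab.Data

theorem gens_ok : allL (Cfsg.Agent.Lib.Schur.CoverH.blockOK 378 275 c_w c_mask 9 511) c_gens = true := by
  decide +kernel

theorem gens_eq : c_gens.map (·.2.2) = h_gens := by
  decide +kernel

theorem hm_ok : c_mask = 2 ^ c_w - 1 := by
  decide +kernel

theorem hid_b : allL (fun i => Nat.beq (app c_w c_mask c_idc i) i) (List.range (275 + 378)) = true := by
  decide +kernel

theorem hid_ok : ∀ i < 275 + 378, app c_w c_mask c_idc i = i := fun i hi =>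
  Nat.eq_of_beq_eq_true ((allL_eq_true _ _).1 hid_b i (List.mem_range.2 hi))

theorem hinv_ok : allL (fun t : ℕ × ℕ × ℕ => Nat.beq (comp (275 + 378) c_w c_mask t.2.1 t.1) c_idc) c_gens = true := by
  decide +kernel

theorem slp_ok : slpCheck (275 + 378) c_w c_mask c_idc (c_z :: topGens (c_levels.map CLev.lev)) c_prog0
    (c_gens.map (·.1)).reverse (c_gens.map (·.1)).length = true := by
  decide +kernel

theorem twits_ok : gensOK c_w c_mask c_L c_maskL c_z c_P c_idc (c_levels.map CLev.lev) (c_gens.map (·.1)) c_twits = true := by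
  decide +kernel

theorem sizes_ok : sizes c_levels = 3265920 := by
  decide +kernel

theorem z_fix : allL (fun b => Nat.beq (app c_w c_mask c_z b) b) (List.range 275) = true := by
  decide +kernel

theorem z_comm : allL (fun t : ℕ × ℕ × ℕ => Nat.beq (comp (275 + 378) c_w c_mask c_z t.1)
      (comp (275 + 378) c_w c_mask t.1 c_z)) c_gens = true := by
  decide +kernel

theorem z_pow : Nat.beq (powC (275 + 378) c_w c_mask c_idc c_z 3) c_idc = true := by
  decide +kernel

theorem z_free : allL (fun i => !(Nat.beq (app c_w c_mask c_z (275 + i)) (275 + i))) (List.range 378) = true := by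
  decide +kernel

theorem P_eq : c_P = [nat_lit 1, nat_lit 2, nat_lit 3, nat_lit 4, nat_lit 5] ++ (List.range 126).map (fun x => 275 + 3 * x) := by
  decide +kernel

theorem base_P : ∀ x ∈ [nat_lit 1, nat_lit 2, nat_lit 3, nat_lit 4, nat_lit 5], x ∈ c_P := by
  decide +kernel

theorem cov_b : allL (fun i => Nat.beq (iterZ c_w c_mask c_z (i % 3) (275 + 3 * (i / 3))) (275 + i))
    (List.range 378) = true := by
  decide +kernel

theorem hcov : ∀ i < 378, ∃ r ∈ c_P, r < 275 + 378 ∧ ∃ j, iterZ c_w c_mask c_z j r = 275 + i := by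
  intro i hi
  refine ⟨275 + 3 * (i / 3), ?_, by omega, i % 3, ?_⟩
  · rw [P_eq]
    refine List.mem_append_right _ ?_
    exact List.mem_map.2 ⟨i / 3, List.mem_range.2 (by omega), rfl⟩
  · exact Nat.eq_of_beq_eq_true ((allL_eq_true _ _).1 cov_b i (List.mem_range.2 hi))

end Cfsg.Agent.Lib.McLCov.Checks
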