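import Cfsg.Agent.Lib.McLCov.Checks

/-!
# The triple cover of `McL`: the tables
-/

set_option autoImplicit false
set_option maxRecDepth 100000

namespace Cfsg.Agent.Lib.McLCov.Rows

open _root_.Cfsg.Agent.Lib.PermComp
open _root_.Cfsg.Agent.Lib.PermComp.Core
open Cfsg.Agent.Lib.McLCov.K3Data Cfsg.Agent.Lib.McLCov.Tab Cfsg.Agent.Lib.Cores Cfsg.Agent.Lib.McLStab.Data

theorem rows : allL (rowW 275 c_w c_mask 9 511 4 ((c_gens.map (·.1)) ++ (c_gens.map (·.2.1))) [nat_lit 1, nat_lit 2, nat_lit 3, nat_lit 4, nat_lit 5]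
    c_z c_TT c_WA c_WB c_Te c_ga c_gb c_gai c_gbi) (List.range 275) = true := by
  decide +kernel

end Cfsg.Agent.Lib.McLCov.Rows
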