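import Cfsg.Agent.Lib.McLCov.ChainD
import Cfsg.Agent.Lib.McLCov.Rows

/-!
# A stem extension of `McL` with kernel of order 3

The transfer of a central extension of a point stabiliser `U₄(3)`, with the class detected by a commuting pair of
elements of order 9.
-/

set_option autoImplicit false
set_option maxRecDepth 100000

namespace Cfsg.Agent.Lib.McLCov

open Cfsg Subgroup
open _root_.Cfsg.Agent.Lib.PermComp
open _root_.Cfsg.Agent.Lib.PermComp.Core
open Cfsg.Agent.Lib.McLCov.K3Data Cfsg.Agent.Lib.McLCov.Tab Cfsg.Agent.Lib.McLCov.Checks Cfsg.Agent.Lib.McLCov.ChainD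
  Cfsg.Agent.Lib.Cores Cfsg.Agent.Lib.LeechP.McL Cfsg.Agent.Lib.McLStab Cfsg.Agent.Lib.McLStab.Data
open Cfsg.Agent.Lib.Schur.CoverCert

local notation "RR" => Rep 9 511 (Equiv.refl (Fin 275))

theorem main_d : (511 : ℕ) = 2 ^ 9 - 1 ∧ (∀ i < 275, app 9 511 d_idc i = i) ∧ d_idc < 2 ^ (275 * 9) ∧
      Sem 9 511 (Equiv.refl (Fin 275)) d_L d_maskL d_levels ∧
      H 9 511 (Equiv.refl (Fin 275)) h_gens = H 9 511 (Equiv.refl (Fin 275)) (topGens d_levels) ∧
      Nat.card (H 9 511 (Equiv.refl (Fin 275)) h_gens) = orderC d_levels :=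
  main_of_checkAll (w := 9) (mask := 511) (e := Equiv.refl (Fin 275)) (L := d_L) (maskL := d_maskL)
    (idc := d_idc) (T := h_gens) (prog := d_prog) (ls := d_levels)
    (fun c hc => (gens_rep c hc).imp fun g hg => hg.2) (by rw [← gens_eq]; exact chain_d)

theorem card_H1 : Nat.card H1 = 3265920 := by
  rw [main_d.2.2.2.2.2, ord_d]

theorem hstab : ∀ g ∈ PP, g 0 = 0 → g ∈ H 9 511 (Equiv.refl (Fin 275)) (c_gens.map (·.2.2)) := by
  rw [gens_eq]
  exact hstab_of_card card_H1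

theorem H1_le' : H 9 511 (Equiv.refl (Fin 275)) (c_gens.map (·.2.2)) ≤ PP := by
  rw [gens_eq]
  exact H1_le

theorem hbase : ∀ g ∈ H 9 511 (Equiv.refl (Fin 275)) (c_gens.map (·.2.2)),
    (∀ b : Fin 275, (b : ℕ) ∈ [nat_lit 1, nat_lit 2, nat_lit 3, nat_lit 4, nat_lit 5] → g b = b) → g = 1 := by
  intro g hg hfix
  obtain ⟨-, -, -, hsem, hH, -⟩ := main_d
  have hg' : g ∈ H 9 511 (Equiv.refl (Fin 275)) (topGens d_levels) := by
    rw [← hH, ← gens_eq]; exact hg
  refine Cfsg.Agent.Lib.Schur.CoverC.eq_one_of_fix_base d_levels hsem g hg' (fun a ha => hfix a ?_)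
  rw [base_d] at ha
  exact ha

theorem wc_ga : wc c_ux = c_ga := by
  decide +kernel

theorem wc_gb : wc c_uy = c_gb := by
  decide +kernel

theorem gai_ok : comp 275 9 511 c_gai c_ga = idc := by
  decide +kernel

theorem gbi_ok : comp 275 9 511 c_gbi c_gb = idc := by
  decide +kernel

theorem gab_comm : comp 275 9 511 c_ga c_gb = comp 275 9 511 c_gb c_ga := by
  decide +kernel

theorem sum_e : ∑ x ∈ Finset.range 275, nthN c_Te x = 284 := by
  decide +kernel

theorem hsum : ¬ 3 ∣ ∑ x : Fin 275, nthN c_Te x := by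
  rw [Fin.sum_univ_eq_sum_range (fun i => nthN c_Te i) 275, sum_e]
  norm_num

/-- The stem extension. -/
theorem exists_stem : ∃ (Γ : Type) (_ : Group Γ) (_ : Finite Γ) (σ : Γ →* PP),
    IsStemExtension σ ∧ Nat.card σ.ker = 3 := by
  obtain ⟨g, hg, hga⟩ := wc_rep c_ux (by decide +kernel)
  obtain ⟨g', hg', hgb⟩ := wc_rep c_uy (by decide +kernel)
  rw [wc_ga] at hga
  rw [wc_gb] at hgb
  have hgg : g * g' = g' * g := by
    have h1 := hga.comp hm9 hgb
    rw [gab_comm] at h1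
    exact h1.unique (hgb.comp hm9 hga)
  exact exists_stem_of_words (N := 378) (m := 275) (w := c_w) (mask := c_mask) (L := c_L) (maskL := c_maskL)
    (idc := c_idc) (w' := 9) (mask' := 511) (kT := 4) Nat.prime_three (gens := c_gens) (prog := c_prog0) (ls := c_levels)
    (zc := c_z) (Pts := c_P) (Pts0 := [nat_lit 1, nat_lit 2, nat_lit 3, nat_lit 4, nat_lit 5]) (twits := c_twits)
    hm_ok hid_ok gens_ok hinv_ok slp_ok K3Chain.chain_ok twits_ok
    (by rw [sizes_ok, gens_eq, card_H1])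
    z_fix z_comm z_pow (by norm_num) z_free base_P hbase hcov PP H1_le' 0 hTT hstab hg hg' hga hgb
    (hga.inv hm9 hid9 gai_ok) (hgb.inv hm9 hid9 gbi_ok) hgg (by decide +kernel)
    (fun x hx => (allL_eq_true _ _).1 Rows.rows x (List.mem_range.2 hx)) hsum

end Cfsg.Agent.Lib.McLCov
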